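import Cfsg.Agent.R3.Suz.Nets

set_option autoImplicit false
set_option maxRecDepth 100000

namespace Cfsg.Agent.R3.Suz
open Cfsg.Agent.Comp Cfsg.Agent.Schur Cfsg.Agent.R3

def prog : List Ai :=
  [Ai.fx 0 [],
   Ai.fx 1508 [33, 1, 16, 19],
   Ai.fx 1366 [33, 24, 4, 18],
   Ai.fx 1048 [33, 1, 0, 8],
   Ai.ct [(146, [33, 21, 20, 33, 18]), (168, [33, 21, 33, 13, 22]), (184, [33, 7, 6, 11, 33]), (348, [33, 21, 18, 33, 19])],
   Ai.ct [(16, [33, 21, 33, 13, 7]), (238, [33, 21, 33, 13]), (239, [33, 21, 33, 20]), (289, [33, 21, 14, 33, 10]), (331, [33, 21, 33, 21, 24])],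
   Ai.ct [(399, [33, 6, 10, 25, 24, 33])],
   Ai.ct [(260, [33, 21, 11, 33, 26])],
   Ai.ct [(303, [33, 21, 2, 33, 20])],
   Ai.ct [(306, [33, 7, 13, 21, 33])],
   Ai.ct [(334, [33, 1, 7, 22, 33])],
   Ai.ct [(11, [33, 21, 33, 24])],
   Ai.ct [(212, [33, 1, 20, 7, 33])],
   Ai.ct [(266, [33, 22, 1, 33, 23])],
   Ai.ct [(8, [33, 23, 5, 23, 33])],
   Ai.ct [(36, [33, 24, 23, 33, 17])],
   Ai.ct [(310, [33, 1, 17, 22, 33])],
   Ai.ct [(172, [33, 21, 20, 16, 33])],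
   Ai.ct [(89, [33, 6, 23, 16, 33, 1])],
   Ai.ct [(352, [33, 21, 2, 18, 33])],
   Ai.ct [(270, [33, 21, 33, 12, 21])],
   Ai.ct [(92, [33, 21, 6, 33, 25])],
   Ai.ct [(53, [33, 1, 10, 7, 33])],
   Ai.ct [(120, [33, 21, 11, 26, 33])],
   Ai.ct [(241, [33, 21, 6, 16, 33])],
   Ai.ct [(307, [33, 21, 4, 33, 12])],
   Ai.ct [(254, [33, 7, 6, 17, 33])],
   Ai.ct [(215, [33, 21, 2, 4, 33])],
   Ai.ct [(213, [33, 21, 6, 33, 23])]]

theorem aut : autB 1782 11 D0 R prog [] 2026486622160 = true := by decide +kernel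


end Cfsg.Agent.R3.Suz
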