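import Cfsg.Agent.R3.Suz.B
import Cfsg.Agent.R3.Suz.D
import Cfsg.Agent.R3.Suz2.B
import Cfsg.Agent.Comp.G24.Iso

set_option autoImplicit false
set_option maxRecDepth 100000

namespace Cfsg.Agent.R3.Suz
open Cfsg.Agent.Comp Cfsg.Agent.Schur Cfsg.Agent.R3 Cfsg

theorem isoG : ∃ e : G24.G ≃* H, ∀ x < 6, (e (G24.s x)).1 = sig Comp.Suz.T x := by
  have := G24.simple
  exact G24.pres.equiv_of_simple G24.hR (sig Comp.Suz.T) (Comp.Suz.sat.mono (by decide +kernel)) (x := 0)
    (by norm_num) fun h => ne_one_of_moves Comp.Suz.ok (w := [0]) (p := 1) (by norm_num)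
      (by decide +kernel) (by rw [ev_single, h]; rfl)

theorem isoL : ∃ e : G24.G ≃* Suz2.H, ∀ x < 6, (e (G24.s x)).1 = sig Suz2.T x := by
  have := G24.simple
  exact G24.pres.equiv_of_simple G24.hR (sig Suz2.T) Suz2.sat (x := 0)
    (by norm_num) fun h => ne_one_of_moves Suz2.ok (w := [0]) (p := 1) (by norm_num)
      (by decide +kernel) (by rw [ev_single, h]; rfl)

theorem cardH : Nat.card H = 251596800 :=
  isoG.elim fun e _ => (Nat.card_congr e.toEquiv).symm.trans G24.card.2.1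

theorem core {Ω : Type*} [Fintype Ω] (E : SimpleGraph Ω) [DecidableRel E.Adj] [MulAction H Ω] (a : Ω)
    (la mu : ℕ) (A : Abs E H a 1365 416 la mu) : ∃ ι : Ω ↪ ℕ, (∀ x, ι x < 1782) ∧ (∀ i < 1782, ∃ x, ι x = i) ∧
      ∀ x y, E.Adj x y ↔ adj0 Comp.Suz.phi.range 1782 D0 (ι x) (ι y) := by
  obtain ⟨b, hb, hs | hs⟩ := step1 A m1 (by decide +kernel) (v := 12) Nat.prime_two
    (cardH.trans (by norm_num)) (by norm_num) (by norm_num) eqQ (by decide +kernel) fixQ at1
  · obtain ⟨rfl, f, L, z, hz, c, h1, h2⟩ := steps' A m1 hb hs fixd at3 lam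
      (by norm_num) quad Nat.prime_five (by norm_num) eqP (by decide +kernel) cons
      (dp_congr tree (by decide +kernel)) sol (good := [Z]) (bad := []) (by decide +kernel) (r := 0)
      (w := []) (by simp)
    rw [List.mem_singleton.mp hz] at h2
    exact step6 top A L (by norm_num) (by decide +kernel) h1 h2 (by norm_num) good fixq at6
  · obtain ⟨e1, h1⟩ := isoG
    obtain ⟨e2, h2⟩ := isoL
    have hs' := dual_stab A m1 Suz2.m1 (e2.symm.trans e1) (L := 6) (fun x hx => by
      rw [show (⟨sig Suz2.T x, _⟩ : Suz2.H) = e2 (G24.s x) from Subtype.ext (h2 x hx).symm,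
        MulEquiv.trans_apply, e2.symm_apply_apply, h1 x hx]
      interval_cases x <;> rfl) hb hs.2 (by norm_num) lines (W := Suz2.Wd) (by decide +kernel) fixl
      (by decide +kernel) (cardH.trans (by norm_num)) Suz2.at1
    letI := MulAction.compHom Ω (e2.symm.trans e1).toMonoidHom
    obtain ⟨-, f, L, z, hz, -⟩ := steps' (A.comp (e2.symm.trans e1)) Suz2.m1 hb hs' Suz2.fixd Suz2.at3
      Suz2.lam (by norm_num) Suz2.quad Nat.prime_five (by norm_num) Suz2.eqP (by decide +kernel) Suz2.cons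
      (dp_congr Suz2.tree (by decide +kernel)) Suz2.sol (good := []) (bad := []) (by simp) (r := 0)
      (w := []) (by simp)
    simp at hz

theorem recog {Ω : Type*} [Fintype Ω] [DecidableEq Ω] (hΩ : Fintype.card Ω = 1782)
    (Γ : Subgroup (Equiv.Perm Ω)) [MulAction.IsPretransitive Γ Ω] (a : Ω)
    (e : G24.G ≃* MulAction.stabilizer Γ a) (b c : Ω)
    (hb : (MulAction.orbit (MulAction.stabilizer Γ a) b).ncard = 1365)
    (hc : (MulAction.orbit (MulAction.stabilizer Γ a) c).ncard = 416) : Nonempty (Γ ≃* Spor.Suz) := by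
  have := Comp.Suz.simple
  have e0 := MonoidHom.ofInjective Comp.Suz.card.2.2
  have := e0.symm.isSimpleGroup
  obtain ⟨e1, -⟩ := isoG
  obtain ⟨e2⟩ := glue top aut (r := 13) (by norm_num)
    (((Nat.card_congr e0.toEquiv).symm.trans Comp.Suz.card.2.1).trans (by norm_num)) cardH
    (by norm_num) core hΩ Γ a (e1.symm.trans e) b c hb hc
  exact ⟨e2.trans e0.symm⟩

end Cfsg.Agent.R3.Suz
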